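import Cfsg.Agent.Lib.Helper93.ThFano
import Cfsg.Agent.S0495
import Cfsg.Agent.S0678

/-!
# Every simple group of order 168 is isomorphic to the automorphism group of the Fano plane
-/

set_option autoImplicit false

namespace Cfsg.Agent.Lib.Helper93.L168

open Cfsg.Agent.Lib.Helper93.Th

theorem natCard_Fano : Nat.card Fano = 168 := by
  rw [Nat.card_eq_fintype_card, card_Fano]

theorem fano_trans : ∀ a b : Fin 7, ∃ g : Fano, (g : Equiv.Perm (Fin 7)) a = b := by decide +kernel

instance fanoPretransitive : MulAction.IsPretransitive Fano (Fin 7) :=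
  ⟨fun a b => by
    obtain ⟨g, hg⟩ := fano_trans a b
    exact ⟨g, hg⟩⟩

theorem not_alt_le : ¬ alternatingGroup (Fin 7) ≤ Fano := by
  intro h
  have h1 := Subgroup.card_le_of_le h
  rw [natCard_Fano, Nat.card_eq_fintype_card] at h1
  have h2 : 2 * Fintype.card (alternatingGroup (Fin 7)) = Fintype.card (Equiv.Perm (Fin 7)) :=
    two_mul_card_alternatingGroup
  rw [Fintype.card_perm, Fintype.card_fin] at h2
  have h3 : Nat.factorial 7 = 5040 := by decide
  omega

instance fanoSimple : IsSimpleGroup Fano :=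
  (Cfsg.Agent.S0678.result (by simp) Fano fano_not_solvable not_alt_le).2

/-- every simple group of order 168 is isomorphic to `Fano` -/
theorem exists_iso {G : Type*} [Group G] [Finite G] [IsSimpleGroup G] (h : Nat.card G = 168) :
    Nonempty (G ≃* Fano) := by
  haveI : Fact (Nat.Prime 7) := ⟨by norm_num⟩
  obtain ⟨e1⟩ := Cfsg.Agent.S0495.result h (F := ZMod 7) (ZMod.card 7)
  obtain ⟨e2⟩ := Cfsg.Agent.S0495.result natCard_Fano (F := ZMod 7) (ZMod.card 7)
  exact ⟨e1.trans e2.symm⟩

end Cfsg.Agent.Lib.Helper93.L168
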